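-- helper85: project OELM (S5990, helper58), regime [R2E] (r = 2 = p): the SUFFICIENCY half via
-- helper8's classification of the involutions of the minus-type orthogonal group, q even.
import Mathlib
import Cfsg.Prelude.Def_GeometricClasses
import Cfsg.Prelude.Def_Classical
import Cfsg.Agent.Lib.Helper8.OmegaMinus
import Cfsg.Agent.Lib.Helper58.OElm.Defs
import Cfsg.Agent.Lib.Helper53.OElm.MinusQE

set_option autoImplicit false
open Matrix

namespace Cfsg.Agent.Lib.Helper85.OElmE

open Cfsg.Agent.Lib.Helper23.OHyp Cfsg.Agent.Lib.Helper44.OElp Cfsg.Agent.Lib.Helper64.OParM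
open Cfsg.Agent.Lib.Helper58.OElm Cfsg.Agent.Lib.Helper8

universe u

section comb

variable {X : Type} [Fintype X] [DecidableEq X]

theorem add_pair (τ : X → X) (hτ : Function.Involutive τ) (T : Finset X)
    (hT : ∀ x ∈ T, τ x ∈ T) (x : X) (hx : x ∉ T) (hne : τ x ≠ x) :
    ∃ T' : Finset X, (∀ y ∈ T', τ y ∈ T') ∧ T'.card = T.card + 2 := by
  have hτx : τ x ∉ T := fun h => hx (by have := hT _ h; rwa [hτ x] at this)
  refine ⟨insert x (insert (τ x) T), ?_, ?_⟩
  · intro y hy
    rw [Finset.mem_insert, Finset.mem_insert] at hy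
    rcases hy with hy | hy | hy
    · rw [hy]; exact Finset.mem_insert_of_mem (Finset.mem_insert_self _ _)
    · rw [hy, hτ x]; exact Finset.mem_insert_self _ _
    · exact Finset.mem_insert_of_mem (Finset.mem_insert_of_mem (hT y hy))
  · rw [Finset.card_insert_of_notMem, Finset.card_insert_of_notMem hτx]
    rw [Finset.mem_insert]
    rintro (h | h)
    · exact hne h.symm
    · exact hx h

theorem add_two (τ : X → X) (hτ : Function.Involutive τ) (T : Finset X)
    (hT : ∀ x ∈ T, τ x ∈ T) (hc : T.card + 2 ≤ Fintype.card X) :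
    ∃ T' : Finset X, (∀ y ∈ T', τ y ∈ T') ∧ T'.card = T.card + 2 := by
  obtain ⟨x, -, hx⟩ := Finset.exists_mem_notMem_of_card_lt_card (s := T) (t := Finset.univ)
    (by rw [Finset.card_univ]; omega)
  by_cases hne : τ x = x
  · obtain ⟨y, -, hy⟩ := Finset.exists_mem_notMem_of_card_lt_card (s := insert x T)
      (t := Finset.univ) (by rw [Finset.card_univ, Finset.card_insert_of_notMem hx]; omega)
    rw [Finset.mem_insert, not_or] at hy
    by_cases hney : τ y = y
    · refine ⟨insert x (insert y T), ?_, ?_⟩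
      · intro z hz
        rw [Finset.mem_insert, Finset.mem_insert] at hz
        rcases hz with hz | hz | hz
        · rw [hz, hne]; exact Finset.mem_insert_self _ _
        · rw [hz, hney]; exact Finset.mem_insert_of_mem (Finset.mem_insert_self _ _)
        · exact Finset.mem_insert_of_mem (Finset.mem_insert_of_mem (hT z hz))
      · rw [Finset.card_insert_of_notMem, Finset.card_insert_of_notMem hy.2]
        rw [Finset.mem_insert]
        rintro (h | h)
        · exact hy.1 h.symm
        · exact hx h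
    · exact add_pair τ hτ T hT y hy.2 hney
  · exact add_pair τ hτ T hT x hx hne

theorem exists_closed (τ : X → X) (hτ : Function.Involutive τ) :
    ∀ n, n ≤ Fintype.card X → (Even n ∨ ∃ x, τ x = x) →
      ∃ T : Finset X, (∀ x ∈ T, τ x ∈ T) ∧ T.card = n := by
  intro n
  induction n using Nat.twoStepInduction with
  | zero => intro _ _; exact ⟨∅, by simp, rfl⟩
  | one =>
    intro _ h
    rcases h with h | ⟨x, hx⟩
    · exact absurd h (by decide)
    · exact ⟨{x}, by simp [hx], by simp⟩
  | more n ih _ =>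
    intro hn h
    obtain ⟨T, hT, hTc⟩ := ih (by omega) (by
      rcases h with h | h
      · left
        rcases h with ⟨r, hr⟩
        exact ⟨r - 1, by omega⟩
      · exact Or.inr h)
    obtain ⟨T', hT', hT'c⟩ := add_two τ hτ T hT (by omega)
    exact ⟨T', hT', by omega⟩

end comb

section cs

variable {F : Type u} [Field F] {ι : Type} [Fintype ι] [DecidableEq ι]

/-- coordinate subspace of the vectors supported on `p` -/
def cs (F : Type u) [Field F] {ι : Type} (p : ι → Prop) : Submodule F (ι → F) where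
  carrier := {v | ∀ i, ¬ p i → v i = 0}
  add_mem' := by
    intro u v hu hv i hi
    rw [Pi.add_apply, hu i hi, hv i hi, add_zero]
  zero_mem' := fun i _ => rfl
  smul_mem' := by
    intro c v hv i hi
    rw [Pi.smul_apply, hv i hi, smul_zero]

omit [Fintype ι] [DecidableEq ι] in
theorem mem_cs {p : ι → Prop} {v : ι → F} : v ∈ cs F p ↔ ∀ i, ¬ p i → v i = 0 := Iff.rfl

omit [DecidableEq ι] in
theorem finrank_cs (p : ι → Prop) [DecidablePred p] :
    Module.finrank F (cs F p) = Fintype.card {i // p i} := by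
  let e : cs F p ≃ₗ[F] ({i // p i} → F) :=
    { toFun := fun v i => v.1 i.1
      map_add' := fun _ _ => rfl
      map_smul' := fun _ _ => rfl
      invFun := fun w => ⟨fun i => if h : p i then w ⟨i, h⟩ else 0, fun i hi => dif_neg hi⟩
      left_inv := fun v => by
        apply Subtype.ext
        funext i
        by_cases h : p i
        · simp [h]
        · simp [h, v.2 i h]
      right_inv := fun w => by
        funext i
        simp [i.2] }
  rw [LinearEquiv.finrank_eq e, Module.finrank_fintype_fun_eq_card]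

end cs

section minus

variable {F : Type u} [Field F] (k : ℕ) (a b : F)

/-- index predicate of `W_T` -/
def pW (T : Finset (Fin k)) : MI k → Prop :=
  Sum.elim (Sum.elim (fun i => i ∈ T) (fun i => i ∈ T)) (fun _ => True)

/-- index predicate of `E_T`, the span of the `e_i`, `i ∉ T` -/
def pE (T : Finset (Fin k)) : MI k → Prop :=
  Sum.elim (Sum.elim (fun i => i ∉ T) (fun _ => False)) (fun _ => False)

theorem finrank_wT (T : Finset (Fin k)) :
    Module.finrank F (cs F (pW k T)) = 2 * T.card + 2 := by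
  classical
  have e : pW k T = fun x => x ∈ (T.disjSum T).disjSum (Finset.univ : Finset (Fin 2)) := by
    funext x
    rcases x with (i | i) | j <;> simp [pW]
  rw [e, finrank_cs, Fintype.card_coe]
  simp
  ring

theorem finrank_eT (T : Finset (Fin k)) :
    Module.finrank F (cs F (pE k T)) = k - T.card := by
  classical
  have e : pE k T = fun x => x ∈ (Tᶜ.disjSum (∅ : Finset (Fin k))).disjSum (∅ : Finset (Fin 2)) := by
    funext x
    rcases x with (i | i) | j <;> simp [pE]
  rw [e, finrank_cs, Fintype.card_coe]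
  simp [Finset.card_compl]

theorem polar_minus (u v : MI k → F) :
    QuadraticMap.polar (Cfsg.quadFormMinus k F a b) u v =
      (∑ i : Fin k, (u (Sum.inl (Sum.inl i)) * v (Sum.inl (Sum.inr i)) +
        v (Sum.inl (Sum.inl i)) * u (Sum.inl (Sum.inr i)))) +
      (2 * u (Sum.inr 0) * v (Sum.inr 0) + a * (u (Sum.inr 0) * v (Sum.inr 1) +
        u (Sum.inr 1) * v (Sum.inr 0)) + 2 * b * u (Sum.inr 1) * v (Sum.inr 1)) := by
  unfold QuadraticMap.polar Cfsg.quadFormMinus
  simp only [Pi.add_apply, add_mul, mul_add, Finset.sum_add_distrib]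
  ring

theorem nd_wT (h2 : (2 : F) = 0) (ha : a ≠ 0) (T : Finset (Fin k)) :
    Cfsg.Geo.IsNondegenerateOn (QuadraticMap.polar (Cfsg.quadFormMinus k F a b))
      (cs F (pW k T)) := by
  classical
  have key : ∀ w ∈ cs F (pW k T), w ≠ 0 → ∃ x ∈ cs F (pW k T),
      QuadraticMap.polar (Cfsg.quadFormMinus k F a b) w x ≠ 0 := by
    intro w hw hw0
    obtain ⟨idx, hidx⟩ : ∃ idx, w idx ≠ 0 := by
      by_contra hcon
      push Not at hcon
      exact hw0 (funext hcon)
    rcases idx with (i | i) | j
    · have hiT : i ∈ T := by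
        by_contra h
        exact hidx (mem_cs.mp hw (Sum.inl (Sum.inl i)) h)
      refine ⟨Pi.single (Sum.inl (Sum.inr i)) 1, ?_, ?_⟩
      · intro idx' hidx'
        rcases idx' with (i' | i') | j'
        · simp
        · by_cases hii : i' = i
          · subst hii
            exact absurd hiT hidx'
          · simp [hii]
        · simp
      · rw [polar_minus]
        simp [Pi.single_apply]
        exact hidx
    · have hiT : i ∈ T := by
        by_contra h
        exact hidx (mem_cs.mp hw (Sum.inl (Sum.inr i)) h)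
      refine ⟨Pi.single (Sum.inl (Sum.inl i)) 1, ?_, ?_⟩
      · intro idx' hidx'
        rcases idx' with (i' | i') | j'
        · by_cases hii : i' = i
          · subst hii
            exact absurd hiT hidx'
          · simp [hii]
        · simp
        · simp
      · rw [polar_minus]
        simp [Pi.single_apply]
        exact hidx
    · have hmem : ∀ j₀ : Fin 2, (Pi.single (Sum.inr j₀) 1 : MI k → F) ∈ cs F (pW k T) := by
        intro j₀ idx' hidx'
        rcases idx' with (i' | i') | j'
        · simp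
        · simp
        · exact absurd trivial hidx'
      by_cases h0 : w (Sum.inr 0) ≠ 0
      · refine ⟨Pi.single (Sum.inr 1) 1, hmem 1, ?_⟩
        have e : QuadraticMap.polar (Cfsg.quadFormMinus k F a b) w (Pi.single (Sum.inr 1) 1) =
            a * w (Sum.inr 0) := by
          rw [polar_minus]
          have s0 : (Pi.single (Sum.inr 1) 1 : MI k → F) (Sum.inr 0) = 0 := by simp
          have s1 : (Pi.single (Sum.inr 1) 1 : MI k → F) (Sum.inr 1) = 1 := by simp
          have sl : ∀ i, (Pi.single (Sum.inr 1) 1 : MI k → F) (Sum.inl i) = 0 := by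
            intro i
            simp
          simp only [s0, s1, sl, mul_zero, zero_mul, add_zero, Finset.sum_const_zero, zero_add,
            mul_one]
          linear_combination (b * w (Sum.inr 1)) * h2
        rw [e]
        exact mul_ne_zero ha h0
      · push Not at h0
        have h1 : w (Sum.inr 1) ≠ 0 := by
          intro h1
          apply hidx
          fin_cases j
          · exact h0
          · exact h1
        refine ⟨Pi.single (Sum.inr 0) 1, hmem 0, ?_⟩
        have e : QuadraticMap.polar (Cfsg.quadFormMinus k F a b) w (Pi.single (Sum.inr 0) 1) =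
            a * w (Sum.inr 1) := by
          rw [polar_minus]
          have s0 : (Pi.single (Sum.inr 0) 1 : MI k → F) (Sum.inr 0) = 1 := by simp
          have s1 : (Pi.single (Sum.inr 0) 1 : MI k → F) (Sum.inr 1) = 0 := by simp
          have sl : ∀ i, (Pi.single (Sum.inr 0) 1 : MI k → F) (Sum.inl i) = 0 := by
            intro i
            simp
          simp only [s0, s1, sl, mul_zero, zero_mul, add_zero, Finset.sum_const_zero, zero_add,
            mul_one]
          linear_combination (w (Sum.inr 0)) * h2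
        rw [e]
        exact mul_ne_zero ha h1
  intro w hw hw0
  obtain ⟨x, hx, hx'⟩ := key w hw hw0
  exact ⟨⟨x, hx, by rwa [QuadraticMap.polar_comm]⟩, ⟨x, hx, hx'⟩⟩

theorem not_plus_wT (hnP : ¬ Plus (Cfsg.quadFormMinus k F a b) ⊤) (T : Finset (Fin k)) :
    ¬ Cfsg.Geo.IsPlusTypeOn (Cfsg.quadFormMinus k F a b) (cs F (pW k T)) := by
  classical
  rintro ⟨U, hUW, hUts, hUdim⟩
  apply hnP
  refine ⟨U ⊔ cs F (pE k T), le_top, ?_, ?_⟩
  · intro x hx
    obtain ⟨u, hu, e, he, rfl⟩ := Submodule.mem_sup.mp hx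
    have h1 : ∀ j, e (Sum.inr j) = 0 := fun j => mem_cs.mp he (Sum.inr j) (fun h => h)
    have h2 : ∀ i, e (Sum.inl (Sum.inr i)) = 0 :=
      fun i => mem_cs.mp he (Sum.inl (Sum.inr i)) (fun h => h)
    have hpol : QuadraticMap.polar (Cfsg.quadFormMinus k F a b) u e = 0 := by
      rw [polar_minus, h1 0, h1 1]
      simp only [h2, mul_zero, zero_add, add_zero]
      apply Finset.sum_eq_zero
      intro i _
      by_cases hi : i ∈ T
      · rw [mem_cs.mp he (Sum.inl (Sum.inl i)) (fun h => h hi), zero_mul]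
      · rw [mem_cs.mp (hUW hu) (Sum.inl (Sum.inr i)) hi, mul_zero]
    have hQe : Cfsg.quadFormMinus k F a b e = 0 := by
      unfold Cfsg.quadFormMinus
      rw [h1 0, h1 1]
      simp [h2]
    have hQu := hUts u hu
    have e1 : Cfsg.quadFormMinus k F a b (u + e) =
        QuadraticMap.polar (Cfsg.quadFormMinus k F a b) u e + Cfsg.quadFormMinus k F a b u +
          Cfsg.quadFormMinus k F a b e := by
      unfold QuadraticMap.polar
      ring
    rw [e1, hpol, hQu, hQe]
    simp
  · have hinf : U ⊓ cs F (pE k T) = ⊥ := by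
      rw [eq_bot_iff]
      rintro v ⟨hvU, hvE⟩
      rw [Submodule.mem_bot]
      funext idx
      rcases idx with (i | i) | j
      · by_cases hi : i ∈ T
        · exact mem_cs.mp hvE _ (fun h => h hi)
        · exact mem_cs.mp (hUW hvU) _ hi
      · exact mem_cs.mp hvE _ (fun h => h)
      · exact mem_cs.mp hvE _ (fun h => h)
    have h3 := Submodule.finrank_sup_add_finrank_inf_eq U (cs F (pE k T))
    rw [hinf, finrank_bot, add_zero, finrank_eT] at h3
    rw [finrank_wT] at hUdim
    have hTk : T.card ≤ k := by simpa using Finset.card_le_univ T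
    have hc : Fintype.card (MI k) = 2 * k + 2 := by
      simp [MI]
      ring
    rw [finrank_top, Module.finrank_fintype_fun_eq_card, hc]
    omega

theorem inv_swap (T : Finset (Fin k)) (j : ℕ) (P : Matrix (Fin 2) (Fin 2) F) (v : MI k → F)
    (hv : v ∈ cs F (pW k T)) :
    (MinusReps.blk k F (InvReps.swapM k F j) P) *ᵥ v ∈ cs F (pW k T) := by
  rw [MinusReps.blk_mulVec, InvReps.swapM_mulVec]
  intro idx hidx
  rcases idx with (i | i) | j'
  · have h1 := mem_cs.mp hv (Sum.inl (Sum.inl i)) hidx
    have h2 := mem_cs.mp hv (Sum.inl (Sum.inr i)) hidx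
    by_cases h : i.val < j
    · simp [InvReps.swapFun, h, h2]
    · simp [InvReps.swapFun, h, h1]
  · have h1 := mem_cs.mp hv (Sum.inl (Sum.inl i)) hidx
    have h2 := mem_cs.mp hv (Sum.inl (Sum.inr i)) hidx
    by_cases h : i.val < j
    · simp [InvReps.swapFun, h, h1]
    · simp [InvReps.swapFun, h, h2]
  · exact absurd trivial hidx

theorem inv_alt (T : Finset (Fin k)) (j : ℕ) (hj : 2 * j ≤ k)
    (hT : ∀ i : Fin k, ∀ h : i.val < 2 * j, i ∉ T →
      (⟨2 * j - 1 - i.val, by omega⟩ : Fin k) ∉ T)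
    (v : MI k → F) (hv : v ∈ cs F (pW k T)) :
    (MinusReps.blk k F (InvReps.altM k F j) 1) *ᵥ v ∈ cs F (pW k T) := by
  rw [MinusReps.blk_mulVec, InvReps.altM_mulVec]
  intro idx hidx
  rcases idx with (i | i) | j'
  · exact mem_cs.mp hv (Sum.inl (Sum.inl i)) hidx
  · simp only [Sum.elim_inl, Sum.elim_inr]
    rw [InvReps.antiM_mulVec k F j hj, mem_cs.mp hv (Sum.inl (Sum.inr i)) hidx, zero_add]
    by_cases h : i.val < 2 * j
    · rw [dif_pos h]
      exact mem_cs.mp hv (Sum.inl (Sum.inl _)) (hT i h hidx)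
    · rw [dif_neg h]
  · exact absurd trivial hidx

end minus

section transport

variable {F : Type u} [Field F] {ι : Type} [Fintype ι] [DecidableEq ι]

/-- An isometry maps elliptic `m`-spaces to elliptic `m`-spaces. -/
theorem transport (Q : (ι → F) → F) (C Ci : Matrix ι ι F) (hCCi : C * Ci = 1)
    (hC : ∀ v, Q (C *ᵥ v) = Q v) (hCi : ∀ v, Q (Ci *ᵥ v) = Q v)
    (W₀ : Submodule F (ι → F)) (m : ℕ) (hf : Module.finrank F W₀ = m)
    (hnd : Cfsg.Geo.IsNondegenerateOn (QuadraticMap.polar Q) W₀)
    (hnp : ¬ Cfsg.Geo.IsPlusTypeOn Q W₀) :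
    Module.finrank F (W₀.map (Matrix.toLin' Ci)) = m ∧
    Cfsg.Geo.IsNondegenerateOn (QuadraticMap.polar Q) (W₀.map (Matrix.toLin' Ci)) ∧
    ¬ Cfsg.Geo.IsPlusTypeOn Q (W₀.map (Matrix.toLin' Ci)) := by
  have hCiC : Ci * C = 1 := mul_eq_one_comm.mp hCCi
  have hinjCi : Function.Injective (Matrix.toLin' Ci) := by
    intro u v huv
    have := congrArg (fun w => C *ᵥ w) huv
    simp only [Matrix.toLin'_apply, Matrix.mulVec_mulVec, hCCi, Matrix.one_mulVec] at this
    exact this
  have hinjC : Function.Injective (Matrix.toLin' C) := by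
    intro u v huv
    have := congrArg (fun w => Ci *ᵥ w) huv
    simp only [Matrix.toLin'_apply, Matrix.mulVec_mulVec, hCiC, Matrix.one_mulVec] at this
    exact this
  have hpol : ∀ u v, QuadraticMap.polar Q (Ci *ᵥ u) (Ci *ᵥ v) = QuadraticMap.polar Q u v := by
    intro u v
    unfold QuadraticMap.polar
    rw [← Matrix.mulVec_add, hCi, hCi, hCi]
  have hdim : Module.finrank F (W₀.map (Matrix.toLin' Ci)) = Module.finrank F W₀ :=
    (Submodule.equivMapOfInjective (Matrix.toLin' Ci) hinjCi W₀).finrank_eq.symm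
  refine ⟨by rw [hdim, hf], ?_, ?_⟩
  · rintro _ ⟨w, hw, rfl⟩ hw0
    have hw0' : w ≠ 0 := by
      rintro rfl
      exact hw0 (map_zero _)
    obtain ⟨⟨x, hx, hx'⟩, ⟨y, hy, hy'⟩⟩ := hnd w hw hw0'
    refine ⟨⟨Matrix.toLin' Ci x, Submodule.mem_map_of_mem hx, ?_⟩,
      ⟨Matrix.toLin' Ci y, Submodule.mem_map_of_mem hy, ?_⟩⟩
    · rw [Matrix.toLin'_apply, Matrix.toLin'_apply, hpol]
      exact hx'
    · rw [Matrix.toLin'_apply, Matrix.toLin'_apply, hpol]
      exact hy'
  · rintro ⟨U, hU, hts, hUdim⟩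
    apply hnp
    refine ⟨U.map (Matrix.toLin' C), ?_, ?_, ?_⟩
    · rintro _ ⟨x, hx, rfl⟩
      obtain ⟨w, hw, rfl⟩ := hU hx
      rw [Matrix.toLin'_apply, Matrix.toLin'_apply, Matrix.mulVec_mulVec, hCCi,
        Matrix.one_mulVec]
      exact hw
    · rintro _ ⟨x, hx, rfl⟩
      rw [Matrix.toLin'_apply, hC]
      exact hts x hx
    · have h1 : Module.finrank F (U.map (Matrix.toLin' C)) = Module.finrank F U :=
        (Submodule.equivMapOfInjective (Matrix.toLin' C) hinjC U).finrank_eq.symm
      rw [h1, hUdim, hdim]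

end transport

/-- [R2E], sufficiency: in characteristic two every noncentral involution of the minus-type
orthogonal group fixes an elliptic `m`-space when `k` is odd or `m ≡ 2 (mod 4)`. -/
theorem r2e_suff : ∀ (F : Type u) [Field F] [Fintype F], (2 : F) = 0 → ∀ (k m : ℕ) (a b : F),
    Aniso a b → 3 ≤ k → 2 ≤ m → Even m → m ≤ 2 * k → (Odd k ∨ m % 4 = 2) →
    AllFix (Cfsg.quadFormMinus k F a b) m 2 := by
  intro F _ _ h2 k m a b hab hk hm hme hmk hkm x hxΩ hzex hns
  obtain ⟨hQ, hnP⟩ := Cfsg.Agent.Lib.Helper53.OElm.pkgMinusQE F k a b hab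
  have ha : a ≠ 0 := Cfsg.Agent.Lib.Helper44.minus_coeff_ne_zero_char2 F h2 a b hab
  have h11 : (1 : F) + 1 = 0 := by rw [one_add_one_eq_two, h2]
  have hz1 : ∀ z : F, z * z = 1 → z = 1 := by
    intro z hz
    have h : (z + 1) * (z + 1) = 0 := by
      have e : (z + 1) * (z + 1) = z * z + 2 * z + 1 := by ring
      rw [e, hz, h2, zero_mul, add_zero, h11]
    have h' : z + 1 = 0 := by
      rcases mul_eq_zero.1 h with h | h <;> exact h
    have e2 : z = -1 := eq_neg_of_add_eq_zero_left h'
    rw [e2]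
    exact neg_eq_of_add_eq_zero_left h11
  obtain ⟨z, hz⟩ := hzex
  obtain ⟨g, hgΩ, rfl⟩ := hxΩ
  have hiso : ∀ v, Cfsg.quadFormMinus k F a b (((g : GL (MI k) F) : Matrix (MI k) (MI k) F) *ᵥ v) =
      Cfsg.quadFormMinus k F a b v := fun v => g.2 v v
  have hpow : ((g : GL (MI k) F) : Matrix (MI k) (MI k) F) *
      ((g : GL (MI k) F) : Matrix (MI k) (MI k) F) = z • (1 : Matrix (MI k) (MI k) F) := by
    rw [← hz, Units.val_pow_eq_pow_val, pow_two]
    rfl
  have hzz : z * z = 1 := by
    let v₀ : MI k → F := Pi.single (Sum.inr 0) 1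
    have hv₀ : Cfsg.quadFormMinus k F a b v₀ = 1 := by
      simp [Cfsg.quadFormMinus, v₀]
    have h1 : Cfsg.quadFormMinus k F a b (((g : GL (MI k) F) : Matrix (MI k) (MI k) F) *ᵥ
        (((g : GL (MI k) F) : Matrix (MI k) (MI k) F) *ᵥ v₀)) = Cfsg.quadFormMinus k F a b v₀ := by
      rw [hiso, hiso]
    rw [Matrix.mulVec_mulVec, hpow, Matrix.smul_mulVec, Matrix.one_mulVec, hQ.smul, hv₀,
      mul_one, pow_two] at h1
    exact h1
  have hx2 : ((g : GL (MI k) F) : Matrix (MI k) (MI k) F) *
      ((g : GL (MI k) F) : Matrix (MI k) (MI k) F) = 1 := by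
    rw [hpow, hz1 z hzz, one_smul]
  have hg2 : g ^ 2 = 1 := by
    rw [pow_two]
    apply Subtype.ext
    apply Units.ext
    exact hx2
  have hg1 : g ≠ 1 := by
    intro h
    apply hns 1
    rw [h, one_smul]
    rfl
  have ht : orderOf g = 2 := orderOf_eq_prime hg2 hg1
  obtain ⟨n', hn'⟩ : ∃ n', m = 2 * n' + 2 := by
    obtain ⟨r, hr⟩ := hme
    exact ⟨r - 1, by omega⟩
  have key : ∃ (s : ↥(Cfsg.isometryGroup F (Cfsg.quadFormMinus k F a b))) (T : Finset (Fin k)),
      IsConj g s ∧ T.card = n' ∧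
      ∀ v ∈ cs F (pW k T), ((s : GL (MI k) F) : Matrix (MI k) (MI k) F) *ᵥ v ∈ cs F (pW k T) := by
    by_cases hty : ∀ v, Cfsg.quadFormMinus k F a b
        (v + ((g : GL (MI k) F) : Matrix (MI k) (MI k) F) *ᵥ v) = 0
    · obtain ⟨j, hj1, hj2, -, hconj⟩ := OmegaMinus.minus_isConj_al k F h2 a b hab g ht hty
      let τ : Fin k → Fin k :=
        fun i => if h : i.val < 2 * j then ⟨2 * j - 1 - i.val, by omega⟩ else i
      have hτ : Function.Involutive τ := by
        intro i
        by_cases h : i.val < 2 * j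
        · have h' : 2 * j - 1 - i.val < 2 * j := by omega
          simp only [τ, dif_pos h, dif_pos h']
          apply Fin.ext
          simp only
          omega
        · simp only [τ, dif_neg h]
      obtain ⟨T, hT, hTc⟩ := exists_closed τ hτ n' (by rw [Fintype.card_fin]; omega) (by
        rcases hkm with hko | hm4
        · right
          refine ⟨⟨k - 1, by omega⟩, ?_⟩
          have hlt : ¬ (k - 1 < 2 * j) := by
            obtain ⟨r, hr⟩ := hko
            omega
          simp only [τ, dif_neg hlt]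
        · left
          exact ⟨n' / 2, by omega⟩)
      refine ⟨OmegaMinus.mal k F h2 a b j, T, hconj, hTc, ?_⟩
      intro v hv
      refine inv_alt k T j hj2 (fun i h hi hcon => hi ?_) v hv
      have h' : 2 * j - 1 - i.val < 2 * j := by omega
      have h3 := hT _ hcon
      simp only [τ, dif_pos h'] at h3
      have e : (⟨2 * j - 1 - (2 * j - 1 - i.val), by omega⟩ : Fin k) = i := by
        apply Fin.ext
        simp only
        omega
      rw [e] at h3
      exact h3
    · obtain ⟨-, -, hconj⟩ := OmegaMinus.minus_isConj_ns k F h2 a b hab g ht hty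
      obtain ⟨T, -, hTc⟩ := exists_closed (id : Fin k → Fin k) (fun _ => rfl) n'
        (by rw [Fintype.card_fin]; omega) (Or.inr ⟨⟨0, by omega⟩, rfl⟩)
      exact ⟨_, T, hconj, hTc, fun v hv => inv_swap k T _ _ v hv⟩
  obtain ⟨s, T, hconj, hTc, hinv⟩ := key
  obtain ⟨c, hc⟩ := isConj_iff.mp hconj
  have hCCi : ((c : GL (MI k) F) : Matrix (MI k) (MI k) F) *
      (((c⁻¹ : ↥(Cfsg.isometryGroup F (Cfsg.quadFormMinus k F a b))) : GL (MI k) F) :
        Matrix (MI k) (MI k) F) = 1 := by
    have := congrArg (fun y : ↥(Cfsg.isometryGroup F (Cfsg.quadFormMinus k F a b)) =>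
      ((y : GL (MI k) F) : Matrix (MI k) (MI k) F)) (mul_inv_cancel c)
    exact this
  have hCiC : (((c⁻¹ : ↥(Cfsg.isometryGroup F (Cfsg.quadFormMinus k F a b))) : GL (MI k) F) :
        Matrix (MI k) (MI k) F) * ((c : GL (MI k) F) : Matrix (MI k) (MI k) F) = 1 := by
    have := congrArg (fun y : ↥(Cfsg.isometryGroup F (Cfsg.quadFormMinus k F a b)) =>
      ((y : GL (MI k) F) : Matrix (MI k) (MI k) F)) (inv_mul_cancel c)
    exact this
  have hS : ((c : GL (MI k) F) : Matrix (MI k) (MI k) F) *
      ((g : GL (MI k) F) : Matrix (MI k) (MI k) F) *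
      (((c⁻¹ : ↥(Cfsg.isometryGroup F (Cfsg.quadFormMinus k F a b))) : GL (MI k) F) :
        Matrix (MI k) (MI k) F) = ((s : GL (MI k) F) : Matrix (MI k) (MI k) F) := by
    have := congrArg (fun y : ↥(Cfsg.isometryGroup F (Cfsg.quadFormMinus k F a b)) =>
      ((y : GL (MI k) F) : Matrix (MI k) (MI k) F)) hc
    exact this
  have hW := transport (Cfsg.quadFormMinus k F a b) _ _ hCCi (fun v => c.2 v v)
    (fun v => (c⁻¹).2 v v) (cs F (pW k T)) m (by rw [finrank_wT, hTc, hn'])
    (nd_wT k a b h2 ha T) (not_plus_wT k a b hnP T)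
  refine ⟨_, hW, ?_⟩
  rintro _ ⟨_, ⟨w, hw, rfl⟩, rfl⟩
  refine ⟨((s : GL (MI k) F) : Matrix (MI k) (MI k) F) *ᵥ w, hinv w hw, ?_⟩
  rw [Matrix.toLin'_apply, Matrix.toLin'_apply, Matrix.toLin'_apply, Matrix.mulVec_mulVec,
    Matrix.mulVec_mulVec, ← hS]
  congr 1
  rw [← mul_assoc, ← mul_assoc, hCiC, one_mul]
  rfl

end Cfsg.Agent.Lib.Helper85.OElmE
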